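import Cfsg.Agent.H513.HNTau
import Cfsg.Agent.H789.Ore.HNgx
import Cfsg.Agent.H692.Ore.HNE
import Cfsg.Agent.HN.CentCards

/-!
# The centralizers of the noncentral elements of `H0 = 2.HS:2` (helper988)

* `card_le` : `|C(y)| ≤ 80640` for `y ≠ 1, τ`;
* `inf_le` : commuting `v`, `u` in `HN`, `u` an involution of the first class, `v ≠ 1`, `v ≠ u`.
-/

set_option autoImplicit false

namespace Cfsg.Agent.H988.TC

open Subgroup Cfsg Cfsg.Agent
open Cfsg.Agent.HN.Pres (H0 gx gz)
open Cfsg.Agent.HN.NormalH (ψ H)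
open Cfsg.Agent.HN.H0Basic (τ τ_comm τ_sq τ_ne_one)
open Cfsg.Agent.HN.XWords (W0)

/-- the order of the centralizer -/
noncomputable abbrev cn {G : Type*} [Group G] (g : G) : ℕ := Nat.card ↥(centralizer ({g} : Set G))

theorem cn_pow {G : Type*} [Group G] [Finite G] (g : G) (n : ℕ) : cn g ≤ cn (g ^ n) := by
  refine Nat.card_le_card_of_injective (Subgroup.inclusion ?_) (Subgroup.inclusion_injective _)
  intro x hx
  exact mem_centralizer_singleton_iff.2 ((Commute.pow_right (mem_centralizer_singleton_iff.1 hx) n))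

theorem exists_pow {G : Type*} [Group G] {g : G} {p : ℕ} (hp : p ∣ orderOf g) (h0 : orderOf g ≠ 0) :
    orderOf (g ^ (orderOf g / p)) = p := orderOf_pow_orderOf_div h0 hp

theorem cn_conj {g y : H0} (h : IsConj g y) : cn y = cn g := by
  obtain ⟨d, hd⟩ := isConj_iff.1 h
  rw [← hd, cn, cn, H513.HNH0.card_cent_conj]

/-- involutions -/
theorem inv_le {y : H0} (hy : y ^ 2 = 1) (h1 : y ≠ 1) (ht : y ≠ τ) : cn y ≤ 80640 := by
  rcases Cfsg.Agent.HN.Syl.involution_cases hy with h | h | h | h | h | h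
  · exact absurd h h1
  · exact absurd h ht
  · rw [cn_conj h]; exact HN.CentCards.card_centralizer_a.trans (by norm_num)
  · rw [cn_conj h]; exact HN.CentCards.card_centralizer_aτ.trans (by norm_num)
  · rw [cn_conj h]; exact HN.CentCards.card_centralizer_z
  · rw [cn_conj h]; exact HN.CentCards.card_centralizer_d.trans (by norm_num)

/-- **the noncentral elements** -/
theorem card_le {y : H0} (h1 : y ≠ 1) (ht : y ≠ τ) : cn y ≤ 80640 := by
  have hfin0 := Cfsg.Agent.HN.H0Basic.finite_H0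
  have h0 : orderOf y ≠ 0 := (orderOf_pos y).ne'
  by_cases hp : ∃ p, p.Prime ∧ p ∣ orderOf y ∧ p ≠ 2
  · obtain ⟨p, hp, hpy, hp2⟩ := hp
    have hpo : orderOf (y ^ (orderOf y / p)) = p := exists_pow hpy h0
    have hpd : p ∣ 177408000 := by
      rw [← Cfsg.Agent.HN.H0Basic.card_H0, ← hpo]
      exact orderOf_dvd_natCard _
    have hcases : p = 3 ∨ p = 5 ∨ p = 7 ∨ p = 11 := by
      have hd2 : p ∣ 2 ^ 11 * (3 ^ 2 * (5 ^ 3 * (7 * 11))) := hpd.trans (dvd_of_eq (by norm_num))
      rcases hp.dvd_mul.1 hd2 with h | h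
      · exact absurd ((Nat.prime_dvd_prime_iff_eq hp Nat.prime_two).1 (hp.dvd_of_dvd_pow h)) hp2
      rcases hp.dvd_mul.1 h with h | h
      · exact Or.inl ((Nat.prime_dvd_prime_iff_eq hp Nat.prime_three).1 (hp.dvd_of_dvd_pow h))
      rcases hp.dvd_mul.1 h with h | h
      · exact Or.inr (Or.inl ((Nat.prime_dvd_prime_iff_eq hp (by norm_num)).1 (hp.dvd_of_dvd_pow h)))
      rcases hp.dvd_mul.1 h with h | h
      · exact Or.inr (Or.inr (Or.inl ((Nat.prime_dvd_prime_iff_eq hp (by norm_num)).1 h)))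
      · exact Or.inr (Or.inr (Or.inr ((Nat.prime_dvd_prime_iff_eq hp (by norm_num)).1 h)))
    refine (cn_pow y (orderOf y / p)).trans ?_
    rcases hcases with rfl | rfl | rfl | rfl
    · exact (H692.Ore.HNE.cent_le (Or.inl hpo)).trans (by norm_num)
    · exact (H692.Ore.HNE.cent_le (Or.inr hpo)).trans (by norm_num)
    · rw [cn, H513.HNTau.card_seven' hpo]; norm_num
    · rw [cn, H513.HNTau.card_eleven' hpo]; norm_num
  push Not at hp
  obtain ⟨k, hk⟩ := (⟨_, Nat.eq_prime_pow_of_unique_prime_dvd h0 fun {q} hq hd => hp q hq hd⟩ : ∃ k, orderOf y = 2 ^ k)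
  rcases k with _ | _ | k
  · rw [pow_zero] at hk
    exact absurd (orderOf_eq_one_iff.1 hk) h1
  · refine inv_le ?_ h1 ht
    have h2 := pow_orderOf_eq_one y
    rw [hk] at h2
    simpa using h2
  · set w := y ^ (2 ^ (k + 1)) with hw
    have hw2 : w ^ 2 = 1 := by
      rw [hw, ← pow_mul, ← pow_succ, ← hk, pow_orderOf_eq_one]
    have hw1 : w ≠ 1 := by
      intro h
      have h3 := orderOf_dvd_of_pow_eq_one h
      rw [hk] at h3
      have h4 := (Nat.pow_dvd_pow_iff_le_right (x := 2) (by norm_num)).1 h3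
      omega
    by_cases hwt : w = τ
    · have h5 : (y ^ (2 ^ k)) ^ 2 = τ := by
        rw [← pow_mul, ← pow_succ]
        exact hwt
      refine (cn_pow y (2 ^ k)).trans ?_
      rw [cn_conj (Cfsg.Agent.HN.Syl.isConj_of_sq_eq_τ h5)]
      exact H789.Ore.HNgx.card_gx.trans (by norm_num)
    · exact (cn_pow y _).trans (inv_le hw2 hw1 hwt)

/-- **in `HN`** -/
theorem inf_le {u v : Spor.HN} (hu : IsConj u (ψ τ)) (huv : u * v = v * u) (h1 : v ≠ 1) (h2 : v ≠ u) :
    Nat.card ↥(centralizer ({v} : Set Spor.HN) ⊓ centralizer ({u} : Set Spor.HN) : Subgroup Spor.HN) ≤ 80640 := by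
  obtain ⟨c, y, hc, hy⟩ := H513.HNTau.conj_of_tau hu.symm huv
  rw [H513.HNTau.card_inf hc hy]
  refine card_le ?_ ?_
  · rintro rfl
    rw [map_one, conj_eq_one_iff] at hy
    exact h1 hy
  · rintro rfl
    rw [← hc] at hy
    exact h2 (mul_left_cancel (mul_right_cancel hy))

end Cfsg.Agent.H988.TC
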